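import Cfsg.Agent.H510.OA.Trans
import Cfsg.Agent.H481.OddAut.Fix
import Cfsg.Agent.H200.RowOrthF
import Cfsg.Agent.H330.ClassSub

/-!
# S2451 (A), the row `Ω_{2m+1}(q)`, `q` odd (helper510)

`exists_S` : `a ≠ 1` a `p`-regular isometry of determinant one, `X` a `p`-group of isometries commuting with `a`: there is a
totally singular `S` of dimension `m - 1` with `x v - v ∈ S` for all `x ∈ X` and `v ∈ S^⊥`.
-/

set_option autoImplicit false
set_option linter.unusedSectionVars false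

namespace Cfsg.Agent.H510.OA

open QuadraticMap Module Cfsg.Agent.LieClassical.OrthCore Cfsg.Agent.LieClassical.OrthTrans
open Cfsg.Agent.H951 (Frm Nd TI Inv Isom fx cm mem_fx mem_cm isCompl_fx_cm finrank_fx_add_cm inv_top)
open Cfsg.Agent.H862.T5.OBase (BB frm_polar BB_apply nd_top)

variable {F V : Type*} [Field F] [Finite F] [AddCommGroup V] [Module F V] [FiniteDimensional F V]
  {Q : QuadraticForm F V} {p : ℕ} [Fact p.Prime] [CharP F p]

theorem coe_pow_apply (a : V ≃ₗ[F] V) (n : ℕ) : ((a : Module.End F V)) ^ n = ((a ^ n : V ≃ₗ[F] V) : Module.End F V) := by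
  induction n with
  | zero => rfl
  | succ n ih =>
    rw [pow_succ, pow_succ, ih]
    rfl

theorem exists_S (hQ : Nondeg Q) (h2 : (2 : F) ≠ 0) {m : ℕ} (hV : finrank F V = 2 * m + 1) {a : V ≃ₗ[F] V}
    (ha : a ∈ O Q) (hdet : LinearEquiv.det a = 1) {r : ℕ} (har : a ^ r = 1) (hr : ¬ p ∣ r) (ha1 : a ≠ 1)
    {X : Subgroup (V ≃ₗ[F] V)} (hX : IsPGroup p X) (hXO : X ≤ O Q) (hXa : ∀ x ∈ X, x * a = a * x) :
    ∃ S : Submodule F V, (∀ s ∈ S, Q s = 0) ∧ finrank F S + 1 = m ∧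
      ∀ x ∈ X, ∀ v, (∀ s ∈ S, polar Q v s = 0) → x v - v ∈ S := by
  have hp : p.Prime := Fact.out
  have hrF : (r : F) ≠ 0 := fun h => hr ((CharP.cast_eq_zero_iff F p r).1 h)
  set hB := frm_polar Q with hBd
  set f : Module.End F V := (a : Module.End F V) with hf
  have hfa : ∀ v, f v = a v := fun v => rfl
  have hfr : f ^ r = 1 := by
    rw [hf, coe_pow_apply, har]
    rfl
  have hiso : Isom (BB Q) f := fun u v => polar_isom ha u v
  have hcomm : ∀ x ∈ X, ∀ v, f (x v) = x (f v) := fun x hx v =>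
    (LinearEquiv.congr_fun (hXa x hx) v).symm
  have hc := isCompl_fx_cm hrF hfr
  have hdim := finrank_fx_add_cm hrF hfr
  have hn1 : Nd (BB Q) (fx f) := by
    have := hiso.nd_inf_fx hB hrF hfr inv_top (nd_top hQ)
    rwa [top_inf_eq] at this
  have hn2 : Nd (BB Q) (cm f) := by
    have := hiso.nd_inf_cm hB hrF hfr inv_top (nd_top hQ)
    rwa [top_inf_eq] at this
  have hX1 : ∀ x ∈ X, ∀ u ∈ fx f, x u ∈ fx f := fun x hx u hu => by
    rw [mem_fx, hcomm x hx, mem_fx.1 hu]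
  have hX2 : ∀ x ∈ X, ∀ u ∈ cm f, x u ∈ cm f := fun x hx u hu => by
    obtain ⟨w, rfl⟩ := mem_cm.1 hu
    exact mem_cm.2 ⟨x w, by rw [hcomm x hx, map_sub]⟩
  have hd1 : 1 ≤ finrank F (fx f) := by
    obtain ⟨v, hv, hav⟩ := H481.OddAut.exists_fixed (p := p) h2 hQ (by rw [hV]; exact ⟨m, rfl⟩) ha hdet har
      ((Nat.Prime.coprime_iff_not_dvd hp).2 hr).symm
    have hv0 : v ≠ 0 := by
      rintro rfl
      exact hv (QuadraticMap.map_zero Q)
    rw [Nat.one_le_iff_ne_zero]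
    intro h0
    rw [Submodule.finrank_eq_zero] at h0
    apply hv0
    rw [← Submodule.mem_bot F, ← h0]
    exact mem_fx.2 hav
  have hd2 : 1 ≤ finrank F (cm f) := by
    rw [Nat.one_le_iff_ne_zero]
    intro h0
    rw [Submodule.finrank_eq_zero] at h0
    apply ha1
    apply LinearEquiv.ext
    intro v
    have h1 : f v - v ∈ cm f := mem_cm.2 ⟨v, rfl⟩
    rw [h0, Submodule.mem_bot, sub_eq_zero] at h1
    exact h1
  have hbot : ∀ x ∈ X, ∀ s ∈ (⊥ : Submodule F V), x s ∈ (⊥ : Submodule F V) := fun x _ s hs => by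
    rw [(Submodule.mem_bot F).1 hs, map_zero]; exact Submodule.zero_mem _
  have hbotQ : ∀ s ∈ (⊥ : Submodule F V), Q s = 0 := fun s hs => by
    rw [(Submodule.mem_bot F).1 hs, QuadraticMap.map_zero]
  obtain ⟨S₁, hS₁U, -, hS₁d, hS₁X, hS₁Q⟩ := exists_chain hX hXO hX1 bot_le hbot hbotQ ((finrank F (fx f) - 1) / 2)
    (by rw [finrank_bot]; omega) (by omega)
  obtain ⟨S₂, hS₂U, -, hS₂d, hS₂X, hS₂Q⟩ := exists_chain hX hXO hX2 bot_le hbot hbotQ ((finrank F (cm f) - 1) / 2)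
    (by rw [finrank_bot]; omega) (by omega)
  have hort : ∀ u ∈ fx f, ∀ v ∈ cm f, polar Q u v = 0 := fun u hu v hv => hiso.fx_cm hB hu hv
  refine ⟨S₁ ⊔ S₂, ?_, ?_, ?_⟩
  · intro s hs
    obtain ⟨s₁, h₁, s₂, h₂, rfl⟩ := Submodule.mem_sup.1 hs
    rw [Q_add, hS₁Q _ h₁, hS₂Q _ h₂, hort _ (hS₁U h₁) _ (hS₂U h₂)]
    ring
  · rw [H951.finrank_sup_of_disj]
    · omega
    · rw [eq_bot_iff, ← hc.inf_eq_bot]
      exact inf_le_inf hS₁U hS₂U
  · intro x hx v hv
    obtain ⟨v₁, h₁, v₂, h₂, rfl⟩ : ∃ v₁ ∈ fx f, ∃ v₂ ∈ cm f, v₁ + v₂ = v := by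
      have h3 : v ∈ fx f ⊔ cm f := by rw [hc.sup_eq_top]; trivial
      exact Submodule.mem_sup.1 h3
    have hxp : ∃ j : ℕ, x ^ p ^ j = 1 := by
      obtain ⟨j, hj⟩ := hX ⟨x, hx⟩
      exact ⟨j, congrArg Subtype.val hj⟩
    have e1 := sub_mem_of_end (p := p) h2 (hXO hx) hxp hn1 hS₁U hS₁Q (hS₁X x hx) (hX1 x hx) (by omega) v₁ h₁
      (fun s hs => by
        have h4 := hv s (Submodule.mem_sup_left hs)
        rw [polar_add_left] at h4
        have h5 : polar Q v₂ s = 0 := by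
          rw [polar_comm]
          exact hort _ (hS₁U hs) _ h₂
        rwa [h5, add_zero] at h4)
    have e2 := sub_mem_of_end (p := p) h2 (hXO hx) hxp hn2 hS₂U hS₂Q (hS₂X x hx) (hX2 x hx) (by omega) v₂ h₂
      (fun s hs => by
        have h4 := hv s (Submodule.mem_sup_right hs)
        rw [polar_add_left] at h4
        rwa [hort _ h₁ _ (hS₂U hs), zero_add] at h4)
    have e3 : x (v₁ + v₂) - (v₁ + v₂) = (x v₁ - v₁) + (x v₂ - v₂) := by
      rw [map_add]
      abel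
    rw [e3]
    exact Submodule.add_mem_sup e1 e2

end Cfsg.Agent.H510.OA
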