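import Cfsg.Agent.H510.OA.Chain
import Cfsg.Agent.H862.T5.OFrame

/-!
# Transitivity of `E Q` on totally singular subspaces (helper510, for S2451)

* `exists_ext` : a linear equivalence `e : S ≃ T` of totally singular subspaces, `2 dim T + 3 ≤ dim V`, is induced by an
  element of `E Q`;
* `exists_trans` : `dim S = dim T`: some `g ∈ E Q` maps `S` onto `T` and `S^⊥` onto `T^⊥`.
-/

set_option autoImplicit false
set_option linter.unusedSectionVars false

namespace Cfsg.Agent.H510.OA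

open QuadraticMap Module Cfsg.Agent.LieClassical.OrthCore Cfsg.Agent.LieClassical.OrthTrans
open Cfsg.Agent.H951 (Frm Nd TI Inv exists_rel_compl' nd_compl_ti)
open Cfsg.Agent.H862.T5.OBase (BB frm_polar BB_apply exists_corr RG_fix nd_top exists_norm_sub)

variable {F V : Type*} [Field F] [Finite F] [AddCommGroup V] [Module F V] [FiniteDimensional F V]
  {Q : QuadraticForm F V}

/-- `T^⊥` represents everything -/
theorem exists_rep (hQ : Nondeg Q) {T : Submodule F V} (hT : ∀ t ∈ T, Q t = 0)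
    (hd : 2 * finrank F T + 3 ≤ finrank F V) (c : F) : ∃ u, (∀ t ∈ T, polar Q u t = 0) ∧ Q u = c := by
  set hB := frm_polar Q with hBd
  have hTI := ti_of_ts hT
  obtain ⟨C, hCle, hC1, hC2⟩ := exists_rel_compl' (W := T) (U := hB.perp T ⊓ ⊤) (le_inf hTI le_top)
  obtain ⟨hCn, hC3, hC4, hC5⟩ := nd_compl_ti hB (nd_top hQ) le_top hTI hC1 hC2
  rw [finrank_top] at hC5
  obtain ⟨u, hu, huc⟩ := exists_norm_sub hCn (by omega) c
  exact ⟨u, fun t ht => hC3 hu t ht, huc⟩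

theorem exists_ext (hG : Good Q) {S T : Submodule F V} (hS : ∀ s ∈ S, Q s = 0) (hT : ∀ t ∈ T, Q t = 0)
    (hd : 2 * finrank F T + 3 ≤ finrank F V) (e : S ≃ₗ[F] T) : ∃ g ∈ E Q, ∀ s : S, g (s : V) = (e s : V) := by
  obtain ⟨T₀, hT₀, hTe⟩ := Cfsg.Agent.S0750.result Q (H862.T5.OFrame.nondeg_polar hG.nondeg) S T e (by
    intro s
    rw [hS s s.2, hT _ (e s).2])
  obtain ⟨g, hg, hgT⟩ := exists_corr hG (S := {u : V | ∀ t ∈ T, polar Q u t = 0}) (fun c _ => by
    obtain ⟨u, hu, huc⟩ := exists_rep hG.nondeg hT hd c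
    exact ⟨u, hu, 1, one_ne_zero, by rw [huc]; ring⟩) hT₀
  refine ⟨g * T₀, hgT, fun s => ?_⟩
  rw [LinearEquiv.mul_apply, hTe]
  exact (RG_fix (fun u (hu : ∀ t ∈ T, polar Q u t = 0) => hu _ (e s).2) hg).1

theorem exists_trans (hG : Good Q) {S T : Submodule F V} (hS : ∀ s ∈ S, Q s = 0) (hT : ∀ t ∈ T, Q t = 0)
    (hST : finrank F S = finrank F T) (hd : 2 * finrank F T + 3 ≤ finrank F V) :
    ∃ g ∈ E Q, (∀ v, v ∈ S → g v ∈ T) ∧ (∀ v, g v ∈ T → v ∈ S) ∧
      (∀ v, (∀ t ∈ T, polar Q (g v) t = 0) → ∀ s ∈ S, polar Q v s = 0) := by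
  obtain ⟨g, hg, hge⟩ := exists_ext hG hS hT hd (LinearEquiv.ofFinrankEq S T hST)
  have h1 : ∀ v, v ∈ S → g v ∈ T := fun v hv => by
    rw [hge ⟨v, hv⟩]
    exact Subtype.mem _
  refine ⟨g, hg, h1, fun v hv => ?_, fun v hv s hs => ?_⟩
  · have h2 : g ((LinearEquiv.ofFinrankEq S T hST).symm ⟨g v, hv⟩ : V) = g v := by
      rw [hge, LinearEquiv.apply_symm_apply]
    rw [← g.injective h2]
    exact Subtype.mem _
  · rw [← polar_isom (E_le_O hg)]
    exact hv _ (h1 s hs)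

end Cfsg.Agent.H510.OA
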